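import Cfsg.Agent.H35.NI.ONGlue
import Cfsg.Agent.H10.WG

/-!
# The generators of the O'Nan presentation as an alphabet (helper35)
-/

set_option autoImplicit false

namespace Cfsg.Agent.H35

open Cfsg.Spor

noncomputable def on7_gi : ON.Gen → ℕ :=
  fun x => ON.Gen.rec (motive := fun _ => ℕ) 0 1 2 3 4 5 6 x
def on7_gens : List ON.Gen := [.g, .a, .b, .c, .d, .e, .f]
/-- generator of a field index -/
def on7_gof : ℕ → ON.Gen := fun i => on7_gens.getD i .a

theorem on7_gof_gi (x : ON.Gen) : on7_gof (on7_gi x) = x := by cases x <;> rfl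

theorem on7_gens_all (x : ON.Gen) : x ∈ on7_gens := by cases x <;> decide

end Cfsg.Agent.H35
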