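import Cfsg.Agent.H35.NI.ONGlue
import Cfsg.Agent.H35.Fi24T.Grp
import Cfsg.Agent.H10.Bsgs

/-!
# Group-theoretic lemmas for the presented O'Nan group (helper35)

* `relIndex_sup_of_normal`, `sup_eq_top_of_relIndex`: indices of `H` in `H ⊔ K` for normal `K`;
* `on_collapse`: a group satisfying the relations of the presentation in which `b c d g = 1`
  is trivial;
* `treePts`: the points reached from a point along a list of tree edges labelled by words.
-/

set_option autoImplicit false

namespace Cfsg.Agent.H35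

open Cfsg.Spor Cfsg.Agent.H10

section Rel

variable {G : Type*} [Group G]

theorem relIndex_sup_of_normal [Finite G] (H K : Subgroup G) [K.Normal] :
    H.relIndex (H ⊔ K) = H.relIndex K := by
  have h1 := Subgroup.relIndex_mul_relIndex (H ⊓ K) K (H ⊔ K) inf_le_right le_sup_right
  have h2 := Subgroup.relIndex_mul_relIndex (H ⊓ K) H (H ⊔ K) inf_le_left le_sup_left
  rw [Subgroup.inf_relIndex_right, Subgroup.relIndex_sup_right] at h1
  rw [Subgroup.inf_relIndex_left] at h2
  have hne : K.relIndex H ≠ 0 := by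
    unfold Subgroup.relIndex
    exact Subgroup.index_ne_zero_of_finite
  have h3 : K.relIndex H * H.relIndex (H ⊔ K) = K.relIndex H * H.relIndex K := by
    rw [h2, ← h1, mul_comm]
  exact Nat.eq_of_mul_eq_mul_left (Nat.pos_of_ne_zero hne) h3

theorem relIndex_dvd_index_normal [Finite G] (H K : Subgroup G) [K.Normal] :
    H.relIndex K ∣ H.index := by
  rw [← relIndex_sup_of_normal]
  exact Subgroup.relIndex_dvd_index_of_le le_sup_left

theorem sup_eq_top_of_relIndex [Finite G] (H K : Subgroup G) [K.Normal]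
    (h : H.relIndex K = H.index) : H ⊔ K = ⊤ := by
  have h1 := Subgroup.relIndex_mul_index (le_sup_left : H ≤ H ⊔ K)
  rw [relIndex_sup_of_normal, h] at h1
  have hne : H.index ≠ 0 := Subgroup.index_ne_zero_of_finite
  have h2 : (H ⊔ K).index = 1 :=
    Nat.eq_of_mul_eq_mul_left (Nat.pos_of_ne_zero hne) (h1.trans (mul_one _).symm)
  exact Subgroup.index_eq_one.mp h2

theorem eq_one_of_pow23 (u : G) (h2 : u ^ 2 = 1) (h3 : u ^ 3 = 1) : u = 1 := by
  have : u ^ 3 = u ^ 2 * u := pow_succ u 2
  rw [h3, h2, one_mul] at this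
  exact this.symm

theorem eq_of_mul_one_sq (x y : G) (hy : y * y = 1) (h : x * y = 1) : x = y := by
  calc x = y⁻¹ := eq_inv_of_mul_eq_one_left h
    _ = y := inv_eq_of_mul_eq_one_left hy

theorem uw_mem_of_all {γ : Type} (H : Subgroup G) (gen : γ → G) (w : List γ)
    (h : ∀ x ∈ w, gen x ∈ H) : uw gen w ∈ H := by
  induction w with
  | nil => rw [uw_nil]; exact H.one_mem
  | cons x w ih =>
    rw [uw_cons]
    exact H.mul_mem (h x List.mem_cons_self) (ih (fun y hy => h y (List.mem_cons_of_mem _ hy)))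

end Rel

section Tree

variable {γ : Type}

/-- the points of a tree: the node `(j, k)` is the image of the `j`-th earlier point under the
`k`-th word -/
noncomputable def treePts (D : W.PData γ) (ws : List (List γ)) (δ : ℕ) :
    List (ℕ × ℕ) → List ℕ → List ℕ
  | [], pts => pts
  | e :: rest, pts => treePts D ws δ rest (pts ++ [D.walk (ws.getD e.2 []) (pts.getD e.1 δ)])

theorem treePts_orbit {D : W.PData γ} {G : Type*} [Group G] (gen : γ → G)
    (ρ : G →* Equiv.Perm (Fin D.N))
    (hw : ∀ (w : List γ) (p : Fin D.N), D.walk w p.val = ((ρ (uw gen w))⁻¹ p).val)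
    (T : Subgroup G) (ws : List (List γ)) (hT : ∀ w ∈ ws, uw gen w ∈ T) (d : Fin D.N) :
    ∀ (nodes : List (ℕ × ℕ)) (pts : List ℕ), (∀ q ∈ pts, ∃ t ∈ T, (ρ t d).val = q) →
      ∀ q ∈ treePts D ws d.val nodes pts, ∃ t ∈ T, (ρ t d).val = q
  | [], pts, h => h
  | e :: rest, pts, h => by
    apply treePts_orbit gen ρ hw T ws hT d rest
    intro q hq
    rw [List.mem_append, List.mem_singleton] at hq
    rcases hq with hq | rfl
    · exact h q hq
    · have hp : ∃ t ∈ T, (ρ t d).val = pts.getD e.1 d.val := by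
        rcases getD_mem_or pts e.1 d.val with hm | hm
        · exact h _ hm
        · rw [hm]; exact ⟨1, T.one_mem, by rw [map_one]; rfl⟩
      obtain ⟨t, ht, e1⟩ := hp
      have hwT : uw gen (ws.getD e.2 []) ∈ T := by
        rcases getD_mem_or ws e.2 [] with hm | hm
        · exact hT _ hm
        · rw [hm, uw_nil]; exact T.one_mem
      refine ⟨(uw gen (ws.getD e.2 []))⁻¹ * t, T.mul_mem (T.inv_mem hwT) ht, ?_⟩
      rw [← e1, hw _ (ρ t d), map_mul, map_inv, Equiv.Perm.mul_apply]

end Tree

section Collapse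

variable {Q : Type*} [Group Q]

/-- a group satisfying the relations of the presentation of the O'Nan group in which
`b c d g = 1` is trivial -/
theorem on_collapse (f : ON.Gen → Q)
    (hA : ∀ x ∈ coxNodes ON.edges, ∀ y ∈ coxNodes ON.edges,
      (f x * f y) ^ coxLabel ON.edges x y = 1)
    (hB : ∀ r ∈ ON.extra, FreeGroup.lift f r = 1)
    (hu : f .b * f .c * f .d * f .g = 1) : ∀ x, f x = 1 := by
  have hsq : ∀ x ∈ coxNodes ON.edges, f x * f x = 1 := by
    intro x hx
    have := hA x hx x hx
    have h1 : coxLabel ON.edges x x = 1 := if_pos rfl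
    rw [h1, pow_one] at this
    exact this
  have sa := hsq .a (by decide)
  have sb := hsq .b (by decide)
  have sc := hsq .c (by decide)
  have sd := hsq .d (by decide)
  have se := hsq .e (by decide)
  have sf := hsq .f (by decide)
  have ib : (f .b)⁻¹ = f .b := inv_of_sq sb
  have ic : (f .c)⁻¹ = f .c := inv_of_sq sc
  have id : (f .d)⁻¹ = f .d := inv_of_sq sd
  have bb : ∀ z : Q, f .b * (f .b * z) = z := fun z => by rw [← mul_assoc, sb, one_mul]
  have cc : ∀ z : Q, f .c * (f .c * z) = z := fun z => by rw [← mul_assoc, sc, one_mul]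
  have dd : ∀ z : Q, f .d * (f .d * z) = z := fun z => by rw [← mul_assoc, sd, one_mul]
  have hg : f .g = f .d * (f .c * f .b) := by
    have h := eq_inv_of_mul_eq_one_right hu
    rw [h, mul_inv_rev, mul_inv_rev, ib, ic, id]
  delta ON.extra at hB
  simp only [List.forall_mem_cons, List.not_mem_nil, false_imp_iff, implies_true, and_true,
    map_mul, map_inv, map_pow, FreeGroup.lift_apply_of] at hB
  obtain ⟨e0, e1, e2, e3, e4, e5, e6⟩ := hB
  -- `c = b`
  have hbc3 : (f .b * f .c) ^ 3 = 1 := hA .b (by decide) .c (by decide)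
  have hcb3 : (f .c * f .b) ^ 3 = 1 := hA .c (by decide) .b (by decide)
  have hcb4 : (f .c * f .b) ^ 4 = 1 := by
    rw [hg] at e2
    simp only [mul_inv_rev, ib, ic, mul_assoc, dd, cc] at e2
    simpa only [pow_succ, pow_zero, one_mul, mul_assoc] using e2
  have hcb : f .c * f .b = 1 := by
    have : (f .c * f .b) ^ 4 = (f .c * f .b) ^ 3 * (f .c * f .b) := pow_succ _ 3
    rw [hcb4, hcb3, one_mul] at this
    exact this.symm
  have hc : f .c = f .b := eq_of_mul_one_sq _ _ sb hcb
  -- `a = b`
  have hab3 : (f .a * f .b) ^ 3 = 1 := hA .a (by decide) .b (by decide)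
  have hac2 : (f .a * f .c) ^ 2 = 1 := hA .a (by decide) .c (by decide)
  rw [hc] at hac2
  have ha : f .a = f .b := eq_of_mul_one_sq _ _ sb (eq_one_of_pow23 _ hac2 hab3)
  -- `f = a`
  have had2 : (f .a * f .d) ^ 2 = 1 := hA .a (by decide) .d (by decide)
  have hcd4 : (f .c * f .d) ^ 4 = 1 := by
    rw [hc, ← ha]
    have : (f .a * f .d) ^ 4 = ((f .a * f .d) ^ 2) ^ 2 := by rw [← pow_mul]
    rw [this, had2, one_pow]
  rw [hcd4, inv_one, mul_one] at e1
  have hf : f .f = f .a := by
    have h := eq_inv_of_mul_eq_one_right e1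
    rw [h]
    exact inv_of_sq sa
  -- `e = a`
  have hea2 : (f .e * f .a) ^ 2 = 1 := hA .e (by decide) .a (by decide)
  have hef3 : (f .e * f .f) ^ 3 = 1 := hA .e (by decide) .f (by decide)
  rw [hf] at hef3
  have he : f .e = f .a := eq_of_mul_one_sq _ _ sa (eq_one_of_pow23 _ hea2 hef3)
  -- `d = a`
  have hda2 : (f .d * f .a) ^ 2 = 1 := hA .d (by decide) .a (by decide)
  have hde3 : (f .d * f .e) ^ 3 = 1 := hA .d (by decide) .e (by decide)
  rw [he] at hde3
  have hd : f .d = f .a := eq_of_mul_one_sq _ _ sa (eq_one_of_pow23 _ hda2 hde3)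
  -- `g = a` and `a = 1`
  have hb : f .b = f .a := ha.symm
  have hc' : f .c = f .a := hc.trans hb
  have aa : ∀ z : Q, f .a * (f .a * z) = z := fun z => by rw [← mul_assoc, sa, one_mul]
  have hg' : f .g = f .a := by rw [hg, hd, hc', hb, aa]
  have ia : (f .a)⁻¹ = f .a := inv_of_sq sa
  have h1 : f .a = 1 := by
    rw [hg', hb, hc'] at e5
    simpa only [ia, mul_assoc, aa, sa, mul_one, one_mul] using e5
  intro x
  cases x
  · rw [hg', h1]
  · exact h1
  · rw [hb, h1]
  · rw [hc', h1]
  · rw [hd, h1]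
  · rw [he, h1]
  · rw [hf, h1]

end Collapse

end Cfsg.Agent.H35
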