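import Cfsg.Agent.H35.T1692.PAll
import Cfsg.Agent.H35.T1692.RAll

/-!
# The permutation representation of the presented O'Nan group on 122760 points (helper35)

The certificates of `S1692` (`T1692`), for the subgroup `⟨a, …, f⟩` as a closure of words.
-/

set_option autoImplicit false
set_option maxRecDepth 100000

namespace Cfsg.Agent.H35

open Cfsg.Spor

/-- the subgroup `⟨a, …, f⟩` of the presented O'Nan group -/
def onHs : Subgroup ON := Subgroup.closure {g | ∃ w ∈ t1692_sw, g = uw on_gen w}

theorem on_rsw_eq : t1692_rsw = t1692_sw := by decide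

theorem on_rhyp : NI.RHyp t1692_rd onHs on_gen := by
  refine ⟨on_gen_gv, on_gof_gi, by decide, fun p hp => wrapRow_of_le _ _ p hp, ?_, ?_,
    t1692_h0, by decide⟩
  · exact NI.circTab_valid on_gen on_gv on_gen_gv _ on_full_one t1692_circT t1692_ccert
      t1692_circ_ok
  · refine NI.hcTab_valid on_gen onHs t1692_rsw ?_ t1692_hc1T t1692_hc2T _
      (fun c hc => allR_sound _ _ _ 0 t1692_hc_ok c (Nat.zero_le _) (by omega) hc)
    intro w hw
    rw [on_rsw_eq] at hw
    exact Subgroup.subset_closure ⟨w, hw, rfl⟩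

theorem on_tchyp : NI.TCHyp on_gen onHs t1692_pd t1692_rd on_rws t1692_sw where
  UP := fun f hv h1 => on_UP f hv h1
  hP := by
    refine ⟨by decide, on_gens_all, on_gv_gv, ?_, t1692_psub⟩
    intro p hp
    exact t1692_pall p hp
  hy := on_rhyp
  hgensR := on_gens_all
  hgen := on_closure
  hN := by decide
  hNM := by decide
  hNN := rfl
  hchk := t1692_rall
  hH := rfl

theorem on_N_pos : 0 < t1692_pd.N := by decide

/-- the permutation representation of the presented O'Nan group on the cosets of `⟨a, …, f⟩` -/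
theorem on_rep : ∃ ρ : ON →* Equiv.Perm (Fin t1692_pd.N),
    (∀ (w : List OnL) (p : Fin t1692_pd.N),
      t1692_pd.walk w p.val = ((ρ (uw on_gen w))⁻¹ p).val) ∧
    onHs = stabOf ρ ⟨0, on_N_pos⟩ ∧
    (∀ ω : Fin t1692_pd.N, ∃ g : ON, ρ g ⟨0, on_N_pos⟩ = ω) :=
  NI.tc_core on_tchyp on_N_pos

theorem onHs_index : onHs.index = 122760 := NI.tc_index on_tchyp

theorem onHs_bound : Finite (ON ⧸ onHs) ∧ Nat.card (ON ⧸ onHs) ≤ 122760 :=
  NI.replay_bound on_rhyp on_gens_all on_closure (by decide) (by decide) t1692_rall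

end Cfsg.Agent.H35
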