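import Cfsg.Agent.H35.OnT.ONV1.RAll
import Cfsg.Agent.H35.OnT.ONV2.RAll
import Cfsg.Agent.H35.OnT.ONV3.RAll
import Cfsg.Agent.H10.Tower

/-!
# The subgroup `⟨a, …, f⟩` of the presented O'Nan group has order at most 3753792 (helper35)

The relators of the presentation that only involve `a, …, f` (the Coxeter relators and
`a f = (c d)^4`) present a group of order at most `5586 * 21 * 32` (it is `L3(7):2`).  Tower of
coset enumerations (method and lemmas of helper10, `H10/WG.lean`): `⟨a,c,d,f⟩` over `1` (32),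
`⟨a,b,c,d,f⟩` over `⟨a,c,d,f⟩` (21), and the whole group over `⟨a,b,c,d,f⟩` (5586).
-/

set_option autoImplicit false
set_option maxRecDepth 100000

namespace Cfsg.Agent.H35

open Cfsg.Agent.H10 Cfsg.Spor

/-- a group of the tower -/
abbrev OnP3 := WG onv3_rws onv3_prels

/-- a group of the tower -/
abbrev OnP2 := WG onv2_rws onv2_prels

/-- a group of the tower -/
abbrev OnP1 := WG onv1_rws onv1_prels

theorem onv3_bound : Finite OnP3 ∧ Nat.card OnP3 ≤ 32 := by
  have hy : RHyp onv3_rd (swGrp (wgGen onv3_rws onv3_prels) onv3_rsw) (wgGen onv3_rws onv3_prels) := by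
    refine ⟨wg_inv _ _, on7_gof_gi, by decide, fun p hp => wrapRow_of_le _ _ p hp, ?_, ?_,
      onv3_h0, by decide⟩
    · exact circTab_valid _ (wg_inv _ _) _ (wg_full_one _ _) onv3_circT onv3_ccert onv3_circ_ok
    · exact hcTab_valid _ (wg_inv _ _) _ onv3_rsw
        (fun w hw => mem_swGrp _ _ w hw) onv3_hc1T onv3_hc2T _
        (fun c hc => allR_sound _ _ _ 0 onv3_hc_ok c (Nat.zero_le _) (by omega) hc)
  have hb := replay_bound hy on7_gens_all (wg_closure _ _) (by decide) (by decide) onv3_rall
  exact card_le_of_trivial (wgGen onv3_rws onv3_prels) 32 hb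

theorem onv2_bound : Finite OnP2 ∧ Nat.card OnP2 ≤ 21 * 32 := by
  have hy : RHyp onv2_rd (swGrp (wgGen onv2_rws onv2_prels) onv2_rsw) (wgGen onv2_rws onv2_prels) := by
    refine ⟨wg_inv _ _, on7_gof_gi, by decide, fun p hp => wrapRow_of_le _ _ p hp, ?_, ?_,
      onv2_h0, by decide⟩
    · exact circTab_valid _ (wg_inv _ _) _ (wg_full_one _ _) onv2_circT onv2_ccert onv2_circ_ok
    · exact hcTab_valid _ (wg_inv _ _) _ onv2_rsw
        (fun w hw => mem_swGrp _ _ w hw) onv2_hc1T onv2_hc2T _
        (fun c hc => allR_sound _ _ _ 0 onv2_hc_ok c (Nat.zero_le _) (by omega) hc)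
  have hb := replay_bound hy on7_gens_all (wg_closure _ _) (by decide) (by decide) onv2_rall
  obtain ⟨φ, hφ⟩ := sub_hom onv3_S (wgGen onv2_rws onv2_prels) (wg_inv _ _) onv2_rws onv2_prels
    onv3_rws onv3_prels (wg_rws _ _) (wg_prels _ _) (by decide)
  have := onv3_bound.1
  exact card_le_tower _ 21 hb φ
    (swGrp_le_range _ (wgGen onv3_rws onv3_prels) onv3_S φ hφ onv2_rsw (by decide)) _ onv3_bound.2

theorem onv1_bound : Finite OnP1 ∧ Nat.card OnP1 ≤ 5586 * (21 * 32) := by
  have hy : RHyp onv1_rd (swGrp (wgGen onv1_rws onv1_prels) onv1_rsw) (wgGen onv1_rws onv1_prels) := by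
    refine ⟨wg_inv _ _, on7_gof_gi, by decide, fun p hp => wrapRow_of_le _ _ p hp, ?_, ?_,
      onv1_h0, by decide⟩
    · exact circTab_valid _ (wg_inv _ _) _ (wg_full_one _ _) onv1_circT onv1_ccert onv1_circ_ok
    · exact hcTab_valid _ (wg_inv _ _) _ onv1_rsw
        (fun w hw => mem_swGrp _ _ w hw) onv1_hc1T onv1_hc2T _
        (fun c hc => allR_sound _ _ _ 0 onv1_hc_ok c (Nat.zero_le _) (by omega) hc)
  have hb := replay_bound hy on7_gens_all (wg_closure _ _) (by decide) (by decide) onv1_rall
  obtain ⟨φ, hφ⟩ := sub_hom onv2_S (wgGen onv1_rws onv1_prels) (wg_inv _ _) onv1_rws onv1_prels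
    onv2_rws onv2_prels (wg_rws _ _) (wg_prels _ _) (by decide)
  have := onv2_bound.1
  exact card_le_tower _ 5586 hb φ
    (swGrp_le_range _ (wgGen onv2_rws onv2_prels) onv2_S φ hφ onv1_rsw (by decide)) _ onv2_bound.2

/-- the generators of the presented O'Nan group, with `g` replaced by `1` -/
def on_cut (x : ON.Gen) : ON := cutGen onv1_S (fun y => (PresentedGroup.of y : ON)) x

theorem on_cut_g : on_cut .g = 1 := by
  unfold on_cut cutGen
  exact if_neg (by decide)

theorem on_node_of_ne (x : ON.Gen) (hx : x ≠ .g) : x ∈ coxNodes ON.edges := by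
  cases x <;> first | exact absurd rfl hx | decide

theorem on_cut_node (x : ON.Gen) (hx : x ≠ .g) : on_cut x = PresentedGroup.of x := by
  unfold on_cut cutGen
  cases x <;> first | exact absurd rfl hx | exact if_pos (by decide)

theorem on_cut_sq (x : ON.Gen) : on_cut x * on_cut x = 1 := by
  by_cases hx : x = .g
  · rw [hx, on_cut_g, one_mul]
  · rw [on_cut_node x hx]; exact on_node_sq x (on_node_of_ne x hx)

theorem on_lab_g (y : ON.Gen) (hy : y ≠ .g) :
    coxLabel ON.edges .g y = 2 ∧ coxLabel ON.edges y .g = 2 := by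
  cases y <;> first | exact absurd rfl hy | decide

theorem on_cut_cox (x y : ON.Gen) : (on_cut x * on_cut y) ^ coxLabel ON.edges x y = 1 := by
  by_cases hx : x = .g
  · by_cases hy : y = .g
    · rw [hx, hy, on_cut_g, one_mul, one_pow]
    · rw [hx, on_cut_g, one_mul, (on_lab_g y hy).1, pow_two]
      exact on_cut_sq y
  · by_cases hy : y = .g
    · rw [hy, on_cut_g, mul_one, (on_lab_g x hx).2, pow_two]
      exact on_cut_sq x
    · rw [on_cut_node x hx, on_cut_node y hy]
      exact (NI.cox_rel_nodes ON.edges ON.extra).1 x (on_node_of_ne x hx) y (on_node_of_ne y hy)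

theorem onv1_rws_eq : onv1_rws = coxSplits [.a, .b, .c, .d, .e, .f] (coxLabel ON.edges) ++
    [([.a, .f, .d, .c, .d], [.c, .d, .c, .d, .c]), ([.g], [])] := by
  decide

/-- the map from the sub-presentation on `a, …, f` to the presented O'Nan group -/
theorem on_sub_hom : ∃ φ : OnP1 →* ON, ∀ x, onv1_S x = true →
    φ (wgGen onv1_rws onv1_prels x) = PresentedGroup.of x := by
  obtain ⟨φ, hφ⟩ := wg_UP onv1_rws onv1_prels on_cut on_cut_sq (by
    rw [onv1_rws_eq]
    intro r hr
    rw [List.mem_append] at hr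
    rcases hr with hr | hr
    · exact splits_of_cox on_cut _ _ on_cut_cox r hr
    · simp only [List.mem_cons, List.not_mem_nil, or_false] at hr
      rcases hr with rfl | rfl
      · have e := on_rel ([.a, .f], [.c, .d, .c, .d, .c, .d, .c, .d]) (by decide)
        have ic : (PresentedGroup.of ON.Gen.c : ON) * PresentedGroup.of ON.Gen.c = 1 :=
          on_node_sq .c (by decide)
        have id : (PresentedGroup.of ON.Gen.d : ON) * PresentedGroup.of ON.Gen.d = 1 :=
          on_node_sq .d (by decide)
        have cc : ∀ z : ON, PresentedGroup.of ON.Gen.c * (PresentedGroup.of ON.Gen.c * z) = z :=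
          fun z => by rw [← mul_assoc, ic, one_mul]
        have dd : ∀ z : ON, PresentedGroup.of ON.Gen.d * (PresentedGroup.of ON.Gen.d * z) = z :=
          fun z => by rw [← mul_assoc, id, one_mul]
        simp only [uw_eq, List.map, List.prod_cons, List.prod_nil, mul_one, on_gen] at e
        simp only [uw_eq, List.reverse_cons, List.reverse_nil, List.nil_append, List.cons_append,
          List.map, List.prod_cons, List.prod_nil, mul_one,
          on_cut_node _ (show ON.Gen.a ≠ .g by decide), on_cut_node _ (show ON.Gen.f ≠ .g by decide),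
          on_cut_node _ (show ON.Gen.c ≠ .g by decide), on_cut_node _ (show ON.Gen.d ≠ .g by decide)]
        rw [← mul_assoc, e]
        simp only [mul_assoc, cc, dd, ic]
      · simp only [List.reverse_nil, List.append_nil, uw_singleton]
        exact on_cut_g) (by
    intro r hr
    exact absurd hr (by simp [onv1_prels]))
  refine ⟨φ, fun x hx => ?_⟩
  rw [hφ]
  unfold on_cut cutGen
  exact if_pos hx

end Cfsg.Agent.H35
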