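import Cfsg.Agent.H35.OnT.L37a
import Cfsg.Agent.H35.OnT.Upper

/-!
# The sub-presentation on `a, …, f` of the O'Nan presentation presents `PSL(3,7) : 2` (helper35)

The six generators are sent to the polarities `A ↦ S (Aᵀ)⁻¹ S⁻¹` of `PSL(3,7)` given by six
symmetric matrices `S` of determinant 1, that is, to the elements `(S, τ)` of `E37`.  A word
`x₁ x₂ x₃ …` is then sent to `(S₁ S₂⁻¹ S₃ …, τ^length)`.  The relators hold (their alternating
products are scalar matrices), the six transvections `1 + E_ij` are alternating products of words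
found by a breadth first search, and `|OnP1| ≤ 3753792 ≤ |E37|`; so the map is an isomorphism.
-/

set_option autoImplicit false
set_option maxRecDepth 100000

namespace Cfsg.Agent.H35

open Cfsg.Spor Cfsg.Agent.H10

/-- the symmetric matrices of the generators -/
def l37_sM : ON.Gen → M37
  | .g => !![1, 0, 0; 0, 1, 0; 0, 0, 1]
  | .a => !![1, 0, 0; 0, 1, 0; 0, 0, 1]
  | .b => !![1, 0, 0; 0, 2, 0; 0, 0, 4]
  | .c => !![1, 2, 2; 2, 1, 5; 2, 5, 1]
  | .d => !![0, 0, 3; 0, 3, 0; 3, 0, 0]
  | .e => !![0, 1, 0; 1, 0, 0; 0, 0, 6]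
  | .f => !![0, 0, 1; 0, 6, 0; 1, 0, 0]

/-- their inverses -/
def l37_tM : ON.Gen → M37
  | .g => !![1, 0, 0; 0, 1, 0; 0, 0, 1]
  | .a => !![1, 0, 0; 0, 1, 0; 0, 0, 1]
  | .b => !![1, 0, 0; 0, 4, 0; 0, 0, 2]
  | .c => !![4, 1, 1; 1, 4, 6; 1, 6, 4]
  | .d => !![0, 0, 5; 0, 5, 0; 5, 0, 0]
  | .e => !![0, 1, 0; 1, 0, 0; 0, 0, 6]
  | .f => !![0, 0, 1; 0, 6, 0; 1, 0, 0]

theorem l37_sM_det (x : ON.Gen) : (l37_sM x).det = 1 := by
  cases x <;> (rw [Matrix.det_fin_three]; decide +kernel)

theorem l37_tM_det (x : ON.Gen) : (l37_tM x).det = 1 := by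
  cases x <;> (rw [Matrix.det_fin_three]; decide +kernel)

/-- the matrices of the generators in `SL(3,7)` -/
def l37_sv (x : ON.Gen) : SL37 := ⟨l37_sM x, l37_sM_det x⟩

/-- their inverses in `SL(3,7)` -/
def l37_tv (x : ON.Gen) : SL37 := ⟨l37_tM x, l37_tM_det x⟩

theorem l37_sv_mul_tv (x : ON.Gen) : l37_sv x * l37_tv x = 1 := by
  cases x <;> exact Subtype.ext (by decide +kernel)

theorem l37_tv_transpose (x : ON.Gen) :
    Matrix.SpecialLinearGroup.transpose (l37_tv x) = l37_tv x := by
  cases x <;> exact Subtype.ext (by decide +kernel)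

theorem l37_tau_sv (x : ON.Gen) : sl37_tau (l37_sv x) = l37_tv x := by
  rw [sl37_tau_apply, inv_eq_of_mul_eq_one_right (l37_sv_mul_tv x), l37_tv_transpose]

theorem l37_tau_tv (x : ON.Gen) : sl37_tau (l37_tv x) = l37_sv x := by
  rw [← l37_tau_sv, sl37_tau_tau]

/-- alternating products in `SL(3,7)`; the flag says that the next letter is inverted -/
def l37_alt : Bool → List ON.Gen → SL37
  | _, [] => 1
  | false, x :: w => l37_sv x * l37_alt true w
  | true, x :: w => l37_tv x * l37_alt false w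

/-- alternating products of matrices -/
def l37_altM : Bool → List ON.Gen → M37
  | _, [] => 1
  | false, x :: w => l37_sM x * l37_altM true w
  | true, x :: w => l37_tM x * l37_altM false w

theorem l37_alt_val : ∀ (b : Bool) (w : List ON.Gen), (l37_alt b w).1 = l37_altM b w
  | false, [] => rfl
  | true, [] => rfl
  | false, x :: w => by
    show (l37_sv x).1 * (l37_alt true w).1 = l37_sM x * l37_altM true w
    rw [l37_alt_val true w]
    rfl
  | true, x :: w => by
    show (l37_tv x).1 * (l37_alt false w).1 = l37_tM x * l37_altM false w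
    rw [l37_alt_val false w]
    rfl

theorem l37_alt_tau : ∀ (b : Bool) (w : List ON.Gen), sl37_tau (l37_alt b w) = l37_alt (!b) w
  | false, [] => map_one _
  | true, [] => map_one _
  | false, x :: w => by
    show sl37_tau (l37_sv x * l37_alt true w) = l37_tv x * l37_alt false w
    rw [map_mul, l37_tau_sv, l37_alt_tau true w]
    rfl
  | true, x :: w => by
    show sl37_tau (l37_tv x * l37_alt false w) = l37_sv x * l37_alt true w
    rw [map_mul, l37_tau_tv, l37_alt_tau false w]
    rfl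

/-- the images of the generators in `PSL(3,7) : 2` -/
def l37_e (x : ON.Gen) : E37 := ⟨psl37_mk (l37_sv x), l37_tg⟩

theorem l37_uw (w : List ON.Gen) :
    uw l37_e w = ⟨psl37_mk (l37_alt false w), l37_tg ^ w.length⟩ := by
  induction w with
  | nil =>
    rw [uw_nil, List.length_nil, pow_zero]
    rfl
  | cons x w ih =>
    rw [uw_cons, ih, List.length_cons, pow_succ']
    refine SemidirectProduct.ext ?_ rfl
    show psl37_mk (l37_sv x) * psl37_theta l37_tg (psl37_mk (l37_alt false w)) =
      psl37_mk (l37_alt false (x :: w))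
    rw [psl37_theta_tg, psl37_tauE_apply, psl37_tau_mk, l37_alt_tau, ← map_mul]
    rfl

theorem l37_tg_pow_even (n : ℕ) (h : n % 2 = 0) : l37_tg ^ n = 1 := by
  obtain ⟨k, hk⟩ : ∃ k, n = 2 * k := ⟨n / 2, by omega⟩
  rw [hk, pow_mul, pow_two, l37_tg_sq, one_pow]

/-- equality of matrices up to a cube root of unity -/
def l37_scal (A B : M37) : Bool :=
  decide (A = B) || (decide (A = (2 : ZMod 7) • B) || decide (A = (4 : ZMod 7) • B))

theorem l37_scal_sound (A B : SL37) (h : l37_scal A.1 B.1 = true) :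
    psl37_mk A = psl37_mk B := by
  unfold l37_scal at h
  rw [Bool.or_eq_true, Bool.or_eq_true, decide_eq_true_eq, decide_eq_true_eq,
    decide_eq_true_eq] at h
  rcases h with h | h | h
  · exact congrArg psl37_mk (Subtype.ext h)
  · exact psl37_mk_eq_of_smul A B 2 (by decide) h
  · exact psl37_mk_eq_of_smul A B 4 (by decide) h

/-- check of a relator: even length and scalar alternating product -/
def l37_relChk (w : List ON.Gen) : Bool :=
  (w.length % 2 == 0) && l37_scal (l37_altM false w) 1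

theorem l37_rel_sound (w : List ON.Gen) (h : l37_relChk w = true) : uw l37_e w = 1 := by
  unfold l37_relChk at h
  rw [Bool.and_eq_true, beq_iff_eq] at h
  rw [l37_uw]
  have h1 : psl37_mk (l37_alt false w) = 1 := by
    have h3 := l37_scal_sound (l37_alt false w) 1 (by rw [l37_alt_val]; exact h.2)
    rw [h3, map_one]
  rw [h1, l37_tg_pow_even _ h.1]
  rfl

/-- the relators of the sub-presentation except the one killing `g` -/
def l37_rwsT : List (List ON.Gen × List ON.Gen) := onv1_rws.dropLast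

theorem l37_rels : ∀ r ∈ l37_rwsT, uw l37_e (r.1 ++ r.2.reverse) = 1 := by
  have h : l37_rwsT.all (fun r => l37_relChk (r.1 ++ r.2.reverse)) = true := by decide +kernel
  intro r hr
  exact l37_rel_sound _ (List.all_eq_true.mp h r hr)

theorem l37_e_sq (x : ON.Gen) : l37_e x * l37_e x = 1 := by
  have h : l37_relChk [x, x] = true := by cases x <;> decide +kernel
  have h2 := l37_rel_sound [x, x] h
  rwa [uw_cons, uw_singleton] at h2

/-- the map from the sub-presentation to `PSL(3,7) : 2` -/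
theorem l37_hom : ∃ Ψ : OnP1 →* E37, ∀ x, onv1_S x = true →
    Ψ (wgGen onv1_rws onv1_prels x) = l37_e x :=
  sub_hom onv1_S l37_e l37_e_sq l37_rwsT [] onv1_rws onv1_prels l37_rels
    (fun r hr => by cases hr) (by decide +kernel)

section Surj

variable (Ψ : OnP1 →* E37)
  (hΨ : ∀ x, onv1_S x = true → Ψ (wgGen onv1_rws onv1_prels x) = l37_e x)

include hΨ

theorem l37_hom_word (w : List ON.Gen) (hw : w.all onv1_S = true) :
    Ψ (uw (wgGen onv1_rws onv1_prels) w) = uw l37_e w := by
  induction w with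
  | nil => rw [uw_nil, uw_nil, map_one]
  | cons x w ih =>
    rw [List.all_cons, Bool.and_eq_true] at hw
    rw [uw_cons, uw_cons, map_mul, hΨ x hw.1, ih hw.2]

omit hΨ in
/-- words whose alternating products are the transvections `1 + E_ij` up to scalars -/
def l37_twT : List (List ON.Gen) := [
  [],
  [.a, .b, .c, .d, .c, .b, .d, .e, .d, .c, .b, .d, .c, .b, .e, .d, .c, .b, .a, .d, .c, .e, .d, .c, .b, .a],
  [.b, .a, .c, .e, .d, .c, .b, .f, .e, .d, .c, .b, .d, .c, .b, .d, .e, .d, .c, .b, .d, .c, .e, .d, .c, .b, .f, .e],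
  [.b, .a, .c, .d, .c, .b, .e, .d, .c, .b, .d, .c, .b, .d, .e, .d, .c, .b, .d, .c, .e, .d, .c, .b],
  [],
  [.a, .b, .a, .d, .c, .d, .c, .b, .e, .d, .c, .b, .d, .c, .b, .d, .e, .d, .c, .b, .d, .c, .e, .d, .c, .b, .a, .d],
  [.a, .b, .a, .e, .d, .c, .d, .c, .b, .e, .d, .c, .b, .d, .c, .b, .d, .e, .d, .c, .b, .d, .c, .e, .d, .c, .b, .a, .d, .e],
  [.b, .a, .c, .d, .c, .b, .f, .e, .d, .c, .b, .d, .c, .b, .d, .e, .d, .c, .b, .d, .c, .e, .d, .c, .b, .f],
  []]

omit hΨ in
/-- the word of the transvection `1 + E_ij` -/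
def l37_tw (i j : Fin 3) : List ON.Gen := l37_twT.getD (3 * i.val + j.val) []

omit hΨ in
theorem l37_tw_ok : ∀ i j : Fin 3, i ≠ j →
    ((l37_tw i j).all onv1_S && ((l37_tw i j).length % 2 == 0) &&
      l37_scal (l37_altM false (l37_tw i j)) (1 + Matrix.single i j 1)) = true := by
  decide +kernel

theorem l37_transv_mem (i j : Fin 3) (hij : i ≠ j) :
    (SemidirectProduct.inl
      (psl37_mk (Matrix.SpecialLinearGroup.transvection hij (1 : ZMod 7))) : E37) ∈ Ψ.range := by
  have h := l37_tw_ok i j hij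
  rw [Bool.and_eq_true, Bool.and_eq_true, beq_iff_eq] at h
  obtain ⟨⟨h1, h2⟩, h3⟩ := h
  refine ⟨uw (wgGen onv1_rws onv1_prels) (l37_tw i j), ?_⟩
  rw [l37_hom_word Ψ hΨ _ h1, l37_uw]
  have e1 : psl37_mk (l37_alt false (l37_tw i j)) =
      psl37_mk (Matrix.SpecialLinearGroup.transvection hij 1) :=
    l37_scal_sound _ _ (by rw [l37_alt_val]; exact h3)
  rw [e1, l37_tg_pow_even _ h2]
  rfl

theorem l37_hom_surj : Function.Surjective Ψ := by
  have hS : (Ψ.range.comap ((SemidirectProduct.inl : PSL37 →* E37).comp psl37_mk)) = ⊤ :=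
    sl37_gen _ (fun i j hij => l37_transv_mem Ψ hΨ i j hij)
  have hinl : ∀ q : PSL37, (SemidirectProduct.inl q : E37) ∈ Ψ.range := by
    intro q
    obtain ⟨A, rfl⟩ := psl37_mk_surj q
    have hA : A ∈ Ψ.range.comap ((SemidirectProduct.inl : PSL37 →* E37).comp psl37_mk) := by
      rw [hS]
      exact Subgroup.mem_top A
    exact hA
  have hinr : (SemidirectProduct.inr l37_tg : E37) ∈ Ψ.range := by
    have h1 : l37_e .a ∈ Ψ.range := ⟨wgGen onv1_rws onv1_prels .a, hΨ .a (by decide)⟩
    have h2 : l37_e .a = SemidirectProduct.inl (psl37_mk (l37_sv .a)) *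
        SemidirectProduct.inr l37_tg := SemidirectProduct.mk_eq_inl_mul_inr _ _
    have h3 := Ψ.range.mul_mem (Ψ.range.inv_mem (hinl (psl37_mk (l37_sv .a)))) h1
    rw [h2, inv_mul_cancel_left] at h3
    exact h3
  intro y
  rw [← MonoidHom.mem_range, ← SemidirectProduct.inl_left_mul_inr_right y]
  refine Ψ.range.mul_mem (hinl _) ?_
  rcases l37_tg_cases y.right with h | h
  · rw [h, map_one]
    exact Ψ.range.one_mem
  · rw [h]
    exact hinr

theorem l37_hom_bij : Function.Bijective Ψ := by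
  have hfin := onv1_bound.1
  apply (l37_hom_surj Ψ hΨ).bijective_of_nat_card_le
  exact onv1_bound.2.trans ((by norm_num : 5586 * (21 * 32) ≤ 3753792).trans l37_card_E)

end Surj

end Cfsg.Agent.H35
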