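import Cfsg.Agent.H35.OnT.Order
import Cfsg.Agent.H35.OnT.L37b

/-!
# The subgroup `⟨a, …, f⟩` of the presented O'Nan group is `PSL(3,7) : 2` (helper35)

The sub-presentation `OnP1` on `a, …, f` maps onto `H = ⟨a, …, f⟩`, and `|OnP1| ≤ 3753792 = |H|`
(`OnT/Order.lean`), so `OnP1 ≅ H`; and `OnP1 ≅ E37 = PSL(3,7) : 2` (`OnT/L37b.lean`).
-/

set_option autoImplicit false
set_option maxRecDepth 100000

namespace Cfsg.Agent.H35

open Cfsg.Spor Cfsg.Agent.H10

/-- the subgroup of the statements on `⟨a, …, f⟩` -/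
theorem on_Hs_eq :
    (Subgroup.closure ({ON.a, ON.b, ON.c, ON.d, ON.e, ON.f} : Set (FreeGroup ON.Gen))).map
      (PresentedGroup.mk (coxRelators ON.edges ∪ {r | r ∈ ON.extra})) = onHs := by
  show Subgroup.map _ (Subgroup.closure _) = Subgroup.closure _
  rw [MonoidHom.map_closure]
  congr 1
  ext g
  simp only [Set.image_insert_eq, Set.image_singleton, Set.mem_insert_iff, Set.mem_singleton_iff,
    t1692_sw_def, List.mem_cons, List.not_mem_nil, or_false, exists_eq_or_imp, exists_eq_left,
    Set.mem_ofPred_eq, uw_eq, List.map, List.prod_cons, List.prod_nil, mul_one, on_gen]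
  rfl

/-- the sub-presentation on `a, …, f` is isomorphic to the subgroup `⟨a, …, f⟩` -/
theorem on_sub_iso : Nonempty (OnP1 ≃* onHs) := by
  obtain ⟨ρ, hw, hst, htr, hinj, hfin, hcard, hHcard⟩ := on_struct
  obtain ⟨φ, hφ⟩ := on_sub_hom
  have hPfin := onv1_bound.1
  have hgen : ∀ x : ON.Gen, x ≠ .g → (PresentedGroup.of x : ON) ∈ onHs := by
    intro x hx
    have h1 : uw on_gen [on_emb x] ∈ onHs :=
      Subgroup.subset_closure ⟨[on_emb x], by cases x <;> first | exact absurd rfl hx | decide, rfl⟩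
    rwa [uw_singleton, on_gen_emb] at h1
  have hmem : ∀ p : OnP1, φ p ∈ onHs := by
    have hle : (⊤ : Subgroup OnP1) ≤ onHs.comap φ := by
      rw [← wg_closure onv1_rws onv1_prels, Subgroup.closure_le]
      rintro _ ⟨x, rfl⟩
      show φ (wgGen onv1_rws onv1_prels x) ∈ onHs
      by_cases hx : x = .g
      · have h1 := wg_rws onv1_rws onv1_prels ([.g], []) (by decide)
        have h2 : wgGen onv1_rws onv1_prels ON.Gen.g = 1 := by
          simpa only [List.reverse_nil, List.append_nil, uw_singleton] using h1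
        rw [hx, h2, map_one]
        exact onHs.one_mem
      · rw [hφ x (by cases x <;> first | exact absurd rfl hx | decide)]
        exact hgen x hx
    exact fun p => hle (Subgroup.mem_top p)
  have hsurj : Function.Surjective (φ.codRestrict onHs hmem) := by
    have hle : onHs ≤ φ.range := by
      unfold onHs
      rw [Subgroup.closure_le]
      rintro g ⟨w, hw', rfl⟩
      simp only [t1692_sw_def, List.mem_cons, List.not_mem_nil, or_false] at hw'
      rcases hw' with rfl | rfl | rfl | rfl | rfl | rfl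
      · exact ⟨wgGen onv1_rws onv1_prels .a, by rw [uw_singleton]; exact hφ .a (by decide)⟩
      · exact ⟨wgGen onv1_rws onv1_prels .b, by rw [uw_singleton]; exact hφ .b (by decide)⟩
      · exact ⟨wgGen onv1_rws onv1_prels .c, by rw [uw_singleton]; exact hφ .c (by decide)⟩
      · exact ⟨wgGen onv1_rws onv1_prels .d, by rw [uw_singleton]; exact hφ .d (by decide)⟩
      · exact ⟨wgGen onv1_rws onv1_prels .e, by rw [uw_singleton]; exact hφ .e (by decide)⟩
      · exact ⟨wgGen onv1_rws onv1_prels .f, by rw [uw_singleton]; exact hφ .f (by decide)⟩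
    rintro ⟨y, hy⟩
    obtain ⟨p, hp⟩ := hle hy
    exact ⟨p, Subtype.ext hp⟩
  have hbij : Function.Bijective (φ.codRestrict onHs hmem) := by
    apply hsurj.bijective_of_nat_card_le
    rw [hHcard]
    exact onv1_bound.2.trans (by norm_num)
  exact ⟨MulEquiv.ofBijective _ hbij⟩

/-- the subgroup `⟨a, …, f⟩` has a normal subgroup of index 2 isomorphic to `PSL(3,7)` -/
theorem on_L37 : ∃ N : Subgroup onHs, N.Normal ∧ N.index = 2 ∧ Nonempty (N ≃* PSL37) := by
  obtain ⟨e1⟩ := on_sub_iso
  obtain ⟨Ψ, hΨ⟩ := l37_hom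
  let e2 : OnP1 ≃* E37 := MulEquiv.ofBijective Ψ (l37_hom_bij Ψ hΨ)
  let Θ : E37 ≃* onHs := e2.symm.trans e1
  refine ⟨(SemidirectProduct.rightHom : E37 →* Multiplicative (ZMod 2)).ker.map
    (Θ : E37 →* onHs), ?_, ?_, ?_⟩
  · exact Subgroup.Normal.map (MonoidHom.normal_ker _) _ Θ.surjective
  · rw [Subgroup.index_map_equiv, Subgroup.index_ker,
      MonoidHom.range_eq_top.mpr SemidirectProduct.rightHom_surjective, Subgroup.card_top,
      l37_card_G2]
  · exact ⟨((Θ.subgroupMap _).symm.trans
      (MulEquiv.subgroupCongr SemidirectProduct.range_inl_eq_ker_rightHom.symm)).trans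
      (MonoidHom.ofInjective SemidirectProduct.inl_injective).symm⟩

theorem on_L37' (H : Subgroup ON) (hH : H = onHs) :
    ∃ N : Subgroup H, N.Normal ∧ N.index = 2 ∧ Nonempty (N ≃* PSL37) := by
  subst hH
  exact on_L37

end Cfsg.Agent.H35
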