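import Mathlib

/-!
# The group `PSL(3,7) : 2` (helper35)

The inverse transpose automorphism of `SL(3,7)` induces an automorphism of order dividing 2 of
`PSL(3,7)`; `E37` is the semidirect product of `PSL(3,7)` with a group of order 2 acting by it.

* `l37_card_E`: `E37` has at least `3753792` elements (from the order of `GL(3,7)`);
* `sl37_gen`: a subgroup of `SL(3,7)` containing the six transvections `1 + E_ij` is everything;
* `psl37_mk_eq_of_smul`: matrices of `SL(3,7)` differing by a scalar have the same class.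
-/

set_option autoImplicit false

namespace Cfsg.Agent.H35

/-- `3 × 3` matrices over the field with 7 elements -/
abbrev M37 := Matrix (Fin 3) (Fin 3) (ZMod 7)

/-- `SL(3,7)` -/
abbrev SL37 := Matrix.SpecialLinearGroup (Fin 3) (ZMod 7)

/-- `PSL(3,7)` -/
abbrev PSL37 := Matrix.ProjectiveSpecialLinearGroup (Fin 3) (ZMod 7)

instance l37_fact7 : Fact (Nat.Prime 7) := ⟨by norm_num⟩

/-- the class of a matrix -/
def psl37_mk : SL37 →* PSL37 := QuotientGroup.mk' (Subgroup.center SL37)

theorem psl37_mk_surj : Function.Surjective psl37_mk := QuotientGroup.mk'_surjective _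

theorem psl37_mk_eq_one (A : SL37) (h : A ∈ Subgroup.center SL37) : psl37_mk A = 1 :=
  (QuotientGroup.eq_one_iff A).mpr h

section Tau

theorem sl37_transpose_mul (A B : SL37) :
    Matrix.SpecialLinearGroup.transpose (A * B) =
      Matrix.SpecialLinearGroup.transpose B * Matrix.SpecialLinearGroup.transpose A :=
  Subtype.ext (Matrix.transpose_mul A.1 B.1)

theorem sl37_transpose_one : Matrix.SpecialLinearGroup.transpose (1 : SL37) = 1 :=
  Subtype.ext Matrix.transpose_one

theorem sl37_transpose_transpose (A : SL37) :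
    Matrix.SpecialLinearGroup.transpose (Matrix.SpecialLinearGroup.transpose A) = A :=
  Subtype.ext (Matrix.transpose_transpose A.1)

theorem sl37_inv_transpose (A : SL37) :
    (Matrix.SpecialLinearGroup.transpose A)⁻¹ = Matrix.SpecialLinearGroup.transpose A⁻¹ := by
  apply inv_eq_of_mul_eq_one_right
  rw [← sl37_transpose_mul, inv_mul_cancel, sl37_transpose_one]

/-- the inverse transpose automorphism of `SL(3,7)` -/
def sl37_tau : SL37 →* SL37 where
  toFun A := Matrix.SpecialLinearGroup.transpose A⁻¹
  map_one' := by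
    show Matrix.SpecialLinearGroup.transpose (1 : SL37)⁻¹ = 1
    rw [inv_one, sl37_transpose_one]
  map_mul' A B := by
    show Matrix.SpecialLinearGroup.transpose (A * B)⁻¹ =
      Matrix.SpecialLinearGroup.transpose A⁻¹ * Matrix.SpecialLinearGroup.transpose B⁻¹
    rw [mul_inv_rev, sl37_transpose_mul]

theorem sl37_tau_apply (A : SL37) : sl37_tau A = Matrix.SpecialLinearGroup.transpose A⁻¹ := rfl

theorem sl37_tau_tau (A : SL37) : sl37_tau (sl37_tau A) = A := by
  rw [sl37_tau_apply, sl37_tau_apply, sl37_inv_transpose, inv_inv, sl37_transpose_transpose]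

theorem sl37_tau_center :
    Subgroup.center SL37 ≤ (Subgroup.center SL37).comap sl37_tau := by
  intro z hz
  rw [Subgroup.mem_comap, Subgroup.mem_center_iff]
  intro g
  have h := (Subgroup.mem_center_iff.mp hz) (sl37_tau g)
  have h2 := congrArg sl37_tau h
  rw [map_mul, map_mul, sl37_tau_tau] at h2
  exact h2

/-- the endomorphism of `PSL(3,7)` induced by the inverse transpose -/
def psl37_tau : PSL37 →* PSL37 :=
  QuotientGroup.map (Subgroup.center SL37) (Subgroup.center SL37) sl37_tau sl37_tau_center

theorem psl37_tau_mk (A : SL37) : psl37_tau (psl37_mk A) = psl37_mk (sl37_tau A) := rfl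

theorem psl37_tau_tau (q : PSL37) : psl37_tau (psl37_tau q) = q := by
  obtain ⟨A, rfl⟩ := psl37_mk_surj q
  rw [psl37_tau_mk, psl37_tau_mk, sl37_tau_tau]

/-- the same as a multiplicative automorphism -/
def psl37_tauE : MulAut PSL37 where
  toFun := psl37_tau
  invFun := psl37_tau
  left_inv := psl37_tau_tau
  right_inv := psl37_tau_tau
  map_mul' := map_mul psl37_tau

theorem psl37_tauE_apply (q : PSL37) : psl37_tauE q = psl37_tau q := rfl

theorem psl37_tauE_sq : psl37_tauE ^ 2 = 1 := by
  ext q
  rw [pow_two, MulAut.mul_apply, MulAut.one_apply, psl37_tauE_apply, psl37_tauE_apply,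
    psl37_tau_tau]

/-- the action of the group of order 2 on `PSL(3,7)` -/
def psl37_theta : Multiplicative (ZMod 2) →* MulAut PSL37 where
  toFun g := psl37_tauE ^ (Multiplicative.toAdd g).val
  map_one' := by
    show psl37_tauE ^ (0 : ZMod 2).val = 1
    rw [ZMod.val_zero, pow_zero]
  map_mul' a b := by
    show psl37_tauE ^ (Multiplicative.toAdd a + Multiplicative.toAdd b).val =
      psl37_tauE ^ (Multiplicative.toAdd a).val * psl37_tauE ^ (Multiplicative.toAdd b).val
    rw [← pow_add, ZMod.val_add, ← pow_eq_pow_mod _ psl37_tauE_sq]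

/-- the group `PSL(3,7) : 2` -/
abbrev E37 := PSL37 ⋊[psl37_theta] Multiplicative (ZMod 2)

/-- the generator of the group of order 2 -/
def l37_tg : Multiplicative (ZMod 2) := Multiplicative.ofAdd 1

theorem psl37_theta_tg : psl37_theta l37_tg = psl37_tauE := by
  show psl37_tauE ^ (1 : ZMod 2).val = psl37_tauE
  rw [show (1 : ZMod 2).val = 1 from rfl, pow_one]

theorem l37_tg_sq : l37_tg * l37_tg = 1 := rfl

theorem l37_tg_cases (g : Multiplicative (ZMod 2)) : g = 1 ∨ g = l37_tg := by
  have h2 : ∀ z : ZMod 2, z = 0 ∨ z = 1 := by decide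
  rcases h2 (Multiplicative.toAdd g) with h | h
  · left; exact congrArg Multiplicative.ofAdd h
  · right; exact congrArg Multiplicative.ofAdd h

end Tau

section Card

theorem l37_card_G2 : Nat.card (Multiplicative (ZMod 2)) = 2 := by
  rw [Nat.card_congr Multiplicative.toAdd, Nat.card_zmod]

theorem l37_card_GL : Nat.card (GL (Fin 3) (ZMod 7)) = 33784128 := by
  rw [Matrix.card_GL_field, ZMod.card, Fin.prod_univ_three]
  rfl

theorem l37_card_SL : 5630688 ≤ Nat.card SL37 := by
  have hker : (Matrix.GeneralLinearGroup.det : GL (Fin 3) (ZMod 7) →* (ZMod 7)ˣ).ker =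
      (Matrix.SpecialLinearGroup.toGL : SL37 →* GL (Fin 3) (ZMod 7)).range := by
    ext g
    rw [MonoidHom.mem_ker, MonoidHom.mem_range]
    constructor
    · intro hg
      have hdet : (g : Matrix (Fin 3) (Fin 3) (ZMod 7)).det = 1 := congrArg Units.val hg
      exact ⟨⟨g.1, hdet⟩, Units.ext rfl⟩
    · rintro ⟨A, rfl⟩
      exact Units.ext A.2
  have h1 : Nat.card (Matrix.GeneralLinearGroup.det :
      GL (Fin 3) (ZMod 7) →* (ZMod 7)ˣ).ker = Nat.card SL37 := by
    rw [hker]
    exact (Nat.card_congr
      (MonoidHom.ofInjective Matrix.SpecialLinearGroup.toGL_injective).toEquiv).symm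
  have h2 := Subgroup.card_mul_index
    (Matrix.GeneralLinearGroup.det : GL (Fin 3) (ZMod 7) →* (ZMod 7)ˣ).ker
  rw [Subgroup.index_ker, l37_card_GL, h1] at h2
  have h3 : Nat.card (Matrix.GeneralLinearGroup.det :
      GL (Fin 3) (ZMod 7) →* (ZMod 7)ˣ).range ≤ 6 := by
    have h4 := Subgroup.card_le_card_group
      (Matrix.GeneralLinearGroup.det : GL (Fin 3) (ZMod 7) →* (ZMod 7)ˣ).range
    rw [Nat.card_units, Nat.card_zmod] at h4
    exact h4
  by_contra hcon
  have h5 : Nat.card SL37 * Nat.card (Matrix.GeneralLinearGroup.det :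
      GL (Fin 3) (ZMod 7) →* (ZMod 7)ˣ).range ≤ 5630687 * 6 := Nat.mul_le_mul (by omega) h3
  omega

theorem l37_center_scalar (z : SL37) (hz : z ∈ Subgroup.center SL37) :
    ∃ r : ZMod 7, r ^ 3 = 1 ∧ z.1 = r • (1 : M37) := by
  obtain ⟨r, hr, hz'⟩ := Matrix.SpecialLinearGroup.mem_center_iff.mp hz
  rw [Fintype.card_fin] at hr
  refine ⟨r, hr, ?_⟩
  rw [← hz', Matrix.scalar_apply, Matrix.smul_one_eq_diagonal]

theorem l37_card_center : Nat.card (Subgroup.center SL37) ≤ 3 := by
  classical
  have hex : ∀ z : Subgroup.center SL37, ∃ r : ZMod 7, r ^ 3 = 1 ∧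
      (z : SL37).1 = r • (1 : M37) := fun z => l37_center_scalar z.1 z.2
  choose f hf1 hf2 using hex
  have hinj : Function.Injective
      (fun z : Subgroup.center SL37 => (⟨f z, hf1 z⟩ : {r : ZMod 7 // r ^ 3 = 1})) := by
    intro z z' h
    have h' : f z = f z' := congrArg Subtype.val h
    apply Subtype.ext
    apply Subtype.ext
    rw [hf2 z, hf2 z', h']
  have h1 := Nat.card_le_card_of_injective _ hinj
  have h3 : Nat.card {r : ZMod 7 // r ^ 3 = 1} = 3 := by
    rw [Nat.card_eq_fintype_card]
    decide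
  omega

theorem l37_card_PSL : 1876896 ≤ Nat.card PSL37 := by
  have h : Nat.card SL37 = Nat.card PSL37 * Nat.card (Subgroup.center SL37) :=
    Subgroup.card_eq_card_quotient_mul_card_subgroup (Subgroup.center SL37)
  have h1 := l37_card_SL
  have h2 := l37_card_center
  by_contra hcon
  have h3 : Nat.card PSL37 * Nat.card (Subgroup.center SL37) ≤ 1876895 * 3 :=
    Nat.mul_le_mul (by omega) h2
  omega

theorem l37_card_E : 3753792 ≤ Nat.card E37 := by
  have h := l37_card_PSL
  rw [SemidirectProduct.card, l37_card_G2]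
  omega

end Card

section Scalar

/-- matrices of `SL(3,7)` differing by a scalar have the same class in `PSL(3,7)` -/
theorem psl37_mk_eq_of_smul (A B : SL37) (c : ZMod 7) (hc : c ^ 3 = 1) (h : A.1 = c • B.1) :
    psl37_mk A = psl37_mk B := by
  have hz : A * B⁻¹ ∈ Subgroup.center SL37 := by
    rw [Matrix.SpecialLinearGroup.mem_center_iff]
    refine ⟨c, by rw [Fintype.card_fin]; exact hc, ?_⟩
    have e : (A * B⁻¹).1 = c • (1 : M37) := by
      rw [Matrix.SpecialLinearGroup.coe_mul, h, Matrix.smul_mul,
        ← Matrix.SpecialLinearGroup.coe_mul, mul_inv_cancel, Matrix.SpecialLinearGroup.coe_one]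
    rw [e, Matrix.scalar_apply, Matrix.smul_one_eq_diagonal]
  have e2 : psl37_mk A = psl37_mk (A * B⁻¹) * psl37_mk B := by
    rw [← map_mul, inv_mul_cancel_right]
  rw [e2, psl37_mk_eq_one _ hz, one_mul]

end Scalar

section Gen

theorem l37_diag_dec : ∀ i j : Fin 3, i ≠ j → ∀ c c' : ZMod 7, c * c' = 1 →
    Matrix.diagonal (fun k => if k = i then c else if k = j then c' else 1) =
      ((1 : M37) + Matrix.single i j c) * (1 + Matrix.single j i (-c')) *
        (1 + Matrix.single i j c) * (1 + Matrix.single i j (-1)) * (1 + Matrix.single j i 1) *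
        (1 + Matrix.single i j (-1)) := by
  decide +kernel

/-- a subgroup of `SL(3,7)` containing the six transvections `1 + E_ij` is the whole group -/
theorem sl37_gen (S : Subgroup SL37)
    (h : ∀ (i j : Fin 3) (hij : i ≠ j),
      Matrix.SpecialLinearGroup.transvection hij (1 : ZMod 7) ∈ S) : S = ⊤ := by
  have ht : ∀ (i j : Fin 3) (hij : i ≠ j) (c : ZMod 7),
      Matrix.SpecialLinearGroup.transvection hij c ∈ S := by
    intro i j hij c
    have hn : ∀ n : ℕ, Matrix.SpecialLinearGroup.transvection hij (n : ZMod 7) ∈ S := by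
      intro n
      induction n with
      | zero =>
        rw [Nat.cast_zero, Matrix.SpecialLinearGroup.transvection_coeff_zero]
        exact S.one_mem
      | succ n ih =>
        rw [Nat.cast_succ, Matrix.SpecialLinearGroup.transvection_add]
        exact S.mul_mem ih (h i j hij)
    have h1 := hn c.val
    rwa [ZMod.natCast_zmod_val] at h1
  rw [eq_top_iff]
  intro M _
  refine Matrix.SpecialLinearGroup.diagonal_transvection_induction' (fun M => M ∈ S) M ?_ ht
    (fun A B hA hB => S.mul_mem hA hB)
  intro i j hij c hc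
  have e : Matrix.SpecialLinearGroup.diag2n hij c hc =
      Matrix.SpecialLinearGroup.transvection hij c *
        Matrix.SpecialLinearGroup.transvection hij.symm (-c⁻¹) *
        Matrix.SpecialLinearGroup.transvection hij c *
        Matrix.SpecialLinearGroup.transvection hij (-1) *
        Matrix.SpecialLinearGroup.transvection hij.symm 1 *
        Matrix.SpecialLinearGroup.transvection hij (-1) :=
    Subtype.ext (l37_diag_dec i j hij c c⁻¹ (mul_inv_cancel₀ hc))
  rw [e]
  exact S.mul_mem (S.mul_mem (S.mul_mem (S.mul_mem (S.mul_mem (ht _ _ _ _) (ht _ _ _ _))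
    (ht _ _ _ _)) (ht _ _ _ _)) (ht _ _ _ _)) (ht _ _ _ _)

end Gen

end Cfsg.Agent.H35
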