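import Cfsg.Agent.H35.OnT.OLab

set_option autoImplicit false
set_option linter.all false
set_option Elab.async false

namespace Cfsg.Agent.H35

theorem on_forchk_8 : allR on_forf 122760 13 (8 * 2 ^ 13) = true := by decide +kernel
theorem on_forchk_9 : allR on_forf 122760 13 (9 * 2 ^ 13) = true := by decide +kernel
theorem on_forchk_10 : allR on_forf 122760 13 (10 * 2 ^ 13) = true := by decide +kernel
theorem on_forchk_11 : allR on_forf 122760 13 (11 * 2 ^ 13) = true := by decide +kernel
theorem on_forchk_12 : allR on_forf 122760 13 (12 * 2 ^ 13) = true := by decide +kernel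
theorem on_forchk_13 : allR on_forf 122760 13 (13 * 2 ^ 13) = true := by decide +kernel
theorem on_forchk_14 : allR on_forf 122760 13 (14 * 2 ^ 13) = true := by decide +kernel

end Cfsg.Agent.H35
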