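import Cfsg.Agent.H35.OnT.OChk0
import Cfsg.Agent.H35.OnT.OChk1

set_option autoImplicit false
set_option linter.all false
set_option Elab.async false

namespace Cfsg.Agent.H35

theorem on_for_all : ∀ p, p < 122760 → on_forf p = true := by
  apply allR_blocks on_forf 122760 13 15 _ (by decide)
  intro k hk
  interval_cases k
  · exact on_forchk_0
  · exact on_forchk_1
  · exact on_forchk_2
  · exact on_forchk_3
  · exact on_forchk_4
  · exact on_forchk_5
  · exact on_forchk_6
  · exact on_forchk_7
  · exact on_forchk_8
  · exact on_forchk_9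
  · exact on_forchk_10
  · exact on_forchk_11
  · exact on_forchk_12
  · exact on_forchk_13
  · exact on_forchk_14

theorem on_cls_all : allR on_clsf 122760 17 0 = true := by decide +kernel
theorem on_cnt1 : cntR (fun p => Nat.beq (fld 8 (on_olab p) 0) 1) 122760 17 0 = 58653 := by decide +kernel
theorem on_cnt2 : cntR (fun p => Nat.beq (fld 8 (on_olab p) 0) 2) 122760 17 0 = 52136 := by decide +kernel
theorem on_cnt3 : cntR (fun p => Nat.beq (fld 8 (on_olab p) 0) 3) 122760 17 0 = 5586 := by decide +kernel
theorem on_cnt4 : cntR (fun p => Nat.beq (fld 8 (on_olab p) 0) 4) 122760 17 0 = 6384 := by decide +kernel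
theorem on_cls0 : fld 8 (on_olab 0) 0 = 0 := by decide +kernel
theorem on_cls_beta : fld 8 (on_olab 1) 0 = 1 := by decide +kernel
theorem on_sfix : on_swords.all (fun w => Nat.beq (t1692_pd.walk w 1) 1) = true := by decide +kernel
theorem on_swords_sub : on_swords.all (fun w => w.all (fun x => decide ([x] ∈ t1692_sw))) = true := by decide
theorem on_tpts_len : on_tpts.length = 64 := by decide +kernel
theorem on_tpts_nodup : on_tpts.Nodup := by decide +kernel
theorem on_tpts_lt : on_tpts.all (fun q => Nat.ble (Nat.succ q) 122760) = true := by decide +kernel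

end Cfsg.Agent.H35
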