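import Cfsg.Agent.H35.OnT.OLab

set_option autoImplicit false
set_option linter.all false
set_option Elab.async false

namespace Cfsg.Agent.H35

theorem on_forchk_0 : allR on_forf 122760 13 (0 * 2 ^ 13) = true := by decide +kernel
theorem on_forchk_1 : allR on_forf 122760 13 (1 * 2 ^ 13) = true := by decide +kernel
theorem on_forchk_2 : allR on_forf 122760 13 (2 * 2 ^ 13) = true := by decide +kernel
theorem on_forchk_3 : allR on_forf 122760 13 (3 * 2 ^ 13) = true := by decide +kernel
theorem on_forchk_4 : allR on_forf 122760 13 (4 * 2 ^ 13) = true := by decide +kernel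
theorem on_forchk_5 : allR on_forf 122760 13 (5 * 2 ^ 13) = true := by decide +kernel
theorem on_forchk_6 : allR on_forf 122760 13 (6 * 2 ^ 13) = true := by decide +kernel
theorem on_forchk_7 : allR on_forf 122760 13 (7 * 2 ^ 13) = true := by decide +kernel

end Cfsg.Agent.H35
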