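import Cfsg.Agent.H35.OnT.Hyp
import Cfsg.Agent.H35.OnT.Upper
import Cfsg.Agent.H35.OnT.OAll

/-!
# The order of the presented O'Nan group (helper35)

Upper bound: index `122760` of `H = ⟨a, …, f⟩` (`T1692`) and `|H| ≤ 5586 * 21 * 32`
(`OnT/Upper.lean`).  Lower bound: `H` has an orbit of `58653` points on the `122760` cosets
(`OnT/OAll.lean`), and the stabiliser in `H` of a point of this orbit has an orbit of `64` points.
Hence `|G| = 122760 * 58653 * 64 = 460815505920` and the permutation representation is faithful.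
-/

set_option autoImplicit false
set_option maxRecDepth 100000

namespace Cfsg.Agent.H35

open Cfsg.Spor Cfsg.Agent.H10

theorem on_upper : Finite ON ∧ Nat.card ON ≤ 122760 * (5586 * (21 * 32)) := by
  obtain ⟨φ, hφ⟩ := on_sub_hom
  have := onv1_bound.1
  refine card_le_tower onHs 122760 onHs_bound φ ?_ _ onv1_bound.2
  unfold onHs
  rw [Subgroup.closure_le]
  rintro g ⟨w, hw, rfl⟩
  simp only [t1692_sw_def, List.mem_cons, List.not_mem_nil, or_false] at hw
  rcases hw with rfl | rfl | rfl | rfl | rfl | rfl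
  · exact ⟨wgGen onv1_rws onv1_prels .a, by rw [uw_singleton]; exact hφ .a (by decide)⟩
  · exact ⟨wgGen onv1_rws onv1_prels .b, by rw [uw_singleton]; exact hφ .b (by decide)⟩
  · exact ⟨wgGen onv1_rws onv1_prels .c, by rw [uw_singleton]; exact hφ .c (by decide)⟩
  · exact ⟨wgGen onv1_rws onv1_prels .d, by rw [uw_singleton]; exact hφ .d (by decide)⟩
  · exact ⟨wgGen onv1_rws onv1_prels .e, by rw [uw_singleton]; exact hφ .e (by decide)⟩
  · exact ⟨wgGen onv1_rws onv1_prels .f, by rw [uw_singleton]; exact hφ .f (by decide)⟩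

/-- the second base point -/
def on_b1 : Fin t1692_pd.N := ⟨1, by decide⟩

/-- the third base point -/
def on_b2 : Fin t1692_pd.N := ⟨113129, by decide⟩

theorem on_sw_mem (w : List OnL) (h : w.all (fun x => decide ([x] ∈ t1692_sw)) = true) :
    uw on_gen w ∈ onHs := by
  apply uw_mem_of_all
  intro x hx
  rw [List.all_eq_true] at h
  have h1 := h x hx
  rw [decide_eq_true_eq] at h1
  have h2 : uw on_gen [x] ∈ onHs := Subgroup.subset_closure ⟨[x], h1, rfl⟩
  rwa [uw_singleton] at h2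

section Chain

variable (ρ : ON →* Equiv.Perm (Fin t1692_pd.N))
  (hw : ∀ (w : List OnL) (p : Fin t1692_pd.N),
    t1692_pd.walk w p.val = ((ρ (uw on_gen w))⁻¹ p).val)

include hw

theorem on_swords_T (w : List OnL) (hwm : w ∈ on_swords) :
    uw on_gen w ∈ onHs ⊓ stabOf ρ on_b1 := by
  constructor
  · exact on_sw_mem w (List.all_eq_true.mp on_swords_sub w hwm)
  · have h1 := List.all_eq_true.mp on_sfix w hwm
    rw [Nat.beq_eq] at h1
    have h2 := hw w on_b1
    rw [show on_b1.val = 1 from rfl, h1] at h2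
    have h3 : (ρ (uw on_gen w))⁻¹ on_b1 = on_b1 := Fin.ext h2.symm
    rw [Equiv.Perm.inv_eq_iff_eq] at h3
    exact h3.symm

theorem on_level2 [Finite ON] :
    64 * Nat.card (onHs ⊓ stabOf ρ on_b1 ⊓ stabOf ρ on_b2 : Subgroup ON) ≤
      Nat.card (onHs ⊓ stabOf ρ on_b1 : Subgroup ON) := by
  classical
  let O : Finset (Fin t1692_pd.N) := Finset.univ.filter (fun x => x.val ∈ on_tpts)
  have hO : ∀ x ∈ O, ∃ g ∈ (onHs ⊓ stabOf ρ on_b1 : Subgroup ON), ρ g on_b2 = x := by
    intro x hx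
    have hx' : x.val ∈ on_tpts := (Finset.mem_filter.mp hx).2
    obtain ⟨t, ht, e⟩ := treePts_orbit on_gen ρ hw (onHs ⊓ stabOf ρ on_b1) on_swords
      (on_swords_T ρ hw) on_b2 on_tnodes [113129] (by
        intro q hq
        rw [List.mem_singleton] at hq
        exact ⟨1, Subgroup.one_mem _, by rw [map_one, hq]; rfl⟩) x.val hx'
    exact ⟨t, ht, Fin.ext e⟩
  have hcard : O.card = 64 := by
    rw [← Finset.card_map Fin.valEmbedding]
    have hmap : O.map Fin.valEmbedding = on_tpts.toFinset := by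
      ext i
      simp only [O, Finset.mem_map, Finset.mem_filter, Finset.mem_univ, true_and,
        Fin.valEmbedding_apply, List.mem_toFinset]
      constructor
      · rintro ⟨x, hx, rfl⟩; exact hx
      · intro hi
        have hlt := List.all_eq_true.mp on_tpts_lt i hi
        rw [Nat.ble_eq] at hlt
        exact ⟨⟨i, hlt⟩, hi, rfl⟩
    rw [hmap, List.toFinset_card_of_nodup on_tpts_nodup, on_tpts_len]
  have := level_step ρ (onHs ⊓ stabOf ρ on_b1) on_b2 O hO
  rwa [hcard] at this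

theorem on_level1 [Finite ON] :
    58653 * Nat.card (onHs ⊓ stabOf ρ on_b1 : Subgroup ON) ≤ Nat.card onHs := by
  classical
  let O : Finset (Fin t1692_pd.N) :=
    Finset.univ.filter (fun p => Nat.beq (fld 8 (on_olab p.val) 0) 1 = true)
  have hO : ∀ x ∈ O, ∃ g ∈ onHs, ρ g on_b1 = x := by
    intro x hx
    have hx' := (Finset.mem_filter.mp hx).2
    rw [Nat.beq_eq] at hx'
    exact W.forest_orbit on_gen ρ hw onHs on_olab t1692_sw on_oroots
      (fun w hw' => Subgroup.subset_closure ⟨w, hw', rfl⟩) on_for_all on_b1 x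
      (by rw [hx']; exact on_cls_beta)
  have hcard : O.card = 58653 := by
    rw [card_filter_fin (fun p => Nat.beq (fld 8 (on_olab p) 0) 1) _ 17 (by decide)]
    exact on_cnt1
  have := level_step ρ onHs on_b1 O hO
  rwa [hcard] at this

end Chain

theorem on_arith (cG cH c1 c2 : ℕ) (hmul : cH * 122760 = cG)
    (hup : cG ≤ 122760 * (5586 * (21 * 32))) (h1 : 58653 * c1 ≤ cH) (h2 : 64 * c2 ≤ c1)
    (hT2 : 0 < c2) : cH = 3753792 ∧ cG = 460815505920 ∧ c2 ≤ 1 := by
  have hHle : cH ≤ 3753792 := by omega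
  have hT2le : c2 ≤ 1 := by
    by_contra hcon
    have h3 : 2 ≤ c2 := by omega
    have h4 : 64 * 2 ≤ c1 := by omega
    omega
  exact ⟨by omega, by omega, hT2le⟩

/-- the permutation representation on 122760 points is faithful, and the orders -/
theorem on_struct : ∃ ρ : ON →* Equiv.Perm (Fin t1692_pd.N),
    (∀ (w : List OnL) (p : Fin t1692_pd.N),
      t1692_pd.walk w p.val = ((ρ (uw on_gen w))⁻¹ p).val) ∧
    onHs = stabOf ρ ⟨0, on_N_pos⟩ ∧
    (∀ ω : Fin t1692_pd.N, ∃ g : ON, ρ g ⟨0, on_N_pos⟩ = ω) ∧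
    Function.Injective ρ ∧ Finite ON ∧ Nat.card ON = 460815505920 ∧ Nat.card onHs = 3753792 := by
  obtain ⟨ρ, hw, hst, htr⟩ := on_rep
  obtain ⟨hfin, hup⟩ := on_upper
  have h1 := on_level1 ρ hw
  have h2 := on_level2 ρ hw
  have hmul : Nat.card onHs * onHs.index = Nat.card ON := Subgroup.card_mul_index onHs
  rw [onHs_index] at hmul
  have hT2 : 0 < Nat.card (onHs ⊓ stabOf ρ on_b1 ⊓ stabOf ρ on_b2 : Subgroup ON) := Nat.card_pos
  obtain ⟨hHeq, hGeq, hT2le⟩ := on_arith _ _ _ _ hmul hup h1 h2 hT2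
  have hbot : (onHs ⊓ stabOf ρ on_b1 ⊓ stabOf ρ on_b2 : Subgroup ON) = ⊥ :=
    Subgroup.eq_bot_of_card_le _ hT2le
  refine ⟨ρ, hw, hst, htr, ?_, hfin, hGeq, hHeq⟩
  rw [injective_iff_map_eq_one]
  intro g hg
  have hmem : g ∈ (onHs ⊓ stabOf ρ on_b1 ⊓ stabOf ρ on_b2 : Subgroup ON) := by
    refine ⟨⟨?_, ?_⟩, ?_⟩
    · rw [hst]; show ρ g _ = _; rw [hg]; rfl
    · show ρ g _ = _; rw [hg]; rfl
    · show ρ g _ = _; rw [hg]; rfl
  rw [hbot] at hmem
  exact Subgroup.mem_bot.mp hmem

end Cfsg.Agent.H35
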