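import Cfsg.Agent.H35.OnT.Order
import Cfsg.Agent.H10.Block

/-!
# The presented O'Nan group is simple (helper35)

`G` acts faithfully and transitively on the 122760 cosets of `H = ⟨a, …, f⟩`, and `H` has the
orbits `{H}` and four more, of 58653, 52136, 5586 and 6384 points (`OnT/OAll.lean`).  For a normal
subgroup `K` not inside `H`, the number `|K : K ∩ H|` is `1` plus a sum of some of these four
numbers (lemma `normal_orbit_colors` of helper10) and divides `122760`, so it is `122760`.  Then `5`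
divides `|K|`; as `25` does not divide `|G|`, the element `b c d g` of order dividing `5` lies in
`K`, and modulo `b c d g` the presentation collapses (`on_collapse`).
-/

set_option autoImplicit false
set_option maxRecDepth 100000

namespace Cfsg.Agent.H35

open Cfsg.Spor Cfsg.Agent.H10

/-- the class of a point: `0` for the base point and `1, …, 4` for the other orbits of
`⟨a, …, f⟩` -/
noncomputable def on_col (x : Fin t1692_pd.N) : ℕ := fld 8 (on_olab x.val) 0

theorem on_col_cases (x : Fin t1692_pd.N) : x.val = 0 ∨ (1 ≤ on_col x ∧ on_col x ≤ 4) := by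
  have h := allR_all on_clsf 122760 17 (by decide) on_cls_all x.val x.isLt
  unfold on_clsf at h
  rw [Bool.or_eq_true, Bool.and_eq_true, Nat.beq_eq, Nat.ble_eq, Nat.ble_eq] at h
  exact h

theorem on_col_card (i c : ℕ)
    (h : cntR (fun p => Nat.beq (fld 8 (on_olab p) 0) i) 122760 17 0 = c) :
    (Finset.univ.filter (fun x : Fin t1692_pd.N => on_col x = i)).card = c := by
  have e : (Finset.univ.filter (fun x : Fin t1692_pd.N => on_col x = i)) =
      Finset.univ.filter
        (fun x : Fin t1692_pd.N => Nat.beq (fld 8 (on_olab x.val) 0) i = true) := by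
    ext x
    rw [Finset.mem_filter, Finset.mem_filter, Nat.beq_eq]
    rfl
  rw [e, card_filter_fin (fun p => Nat.beq (fld 8 (on_olab p) 0) i) _ 17 (by decide)]
  exact h

theorem sum_sub_range5 (I : Finset ℕ) (hI : I ⊆ Finset.range 5) (h0 : 0 ∉ I) (F : ℕ → ℕ) :
    ∑ i ∈ I, F i = (if 1 ∈ I then F 1 else 0) + (if 2 ∈ I then F 2 else 0) +
      (if 3 ∈ I then F 3 else 0) + (if 4 ∈ I then F 4 else 0) := by
  classical
  have h : ∑ i ∈ I, F i = ∑ i ∈ Finset.range 5, if i ∈ I then F i else 0 := by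
    rw [Finset.sum_ite_mem, Finset.inter_eq_right.mpr hI]
  rw [h, Finset.sum_range_succ, Finset.sum_range_succ, Finset.sum_range_succ,
    Finset.sum_range_succ, Finset.sum_range_one, if_neg h0, zero_add]

/-- the presented O'Nan group is simple -/
theorem on_simple : IsSimpleGroup ON := by
  classical
  obtain ⟨ρ, hw, hst, htr, hinj, hfin, hcard, hHcard⟩ := on_struct
  have : Nontrivial ON := by
    rw [← Finite.one_lt_card_iff_nontrivial, hcard]
    norm_num
  refine ⟨fun K hK => ?_⟩
  rw [or_iff_not_imp_left]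
  intro hKbot
  have hKH : ¬ K ≤ stabOf ρ ⟨0, on_N_pos⟩ := by
    intro hle
    apply hKbot
    rw [Subgroup.eq_bot_iff_forall]
    intro k hk
    apply hinj
    rw [map_one]
    ext1 ω
    obtain ⟨g, rfl⟩ := htr ω
    have h1 : g⁻¹ * k * g ∈ K := by
      have := hK.conj_mem k hk g⁻¹
      rwa [inv_inv] at this
    have h2 : ρ (g⁻¹ * k * g) ⟨0, on_N_pos⟩ = ⟨0, on_N_pos⟩ := hle h1
    rw [map_mul, map_mul, Equiv.Perm.mul_apply, Equiv.Perm.mul_apply, map_inv,
      Equiv.Perm.inv_eq_iff_eq] at h2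
    rw [Equiv.Perm.one_apply]
    exact h2
  have hr : ∀ x : Fin t1692_pd.N, on_col x < 5 := by
    intro x
    rcases on_col_cases x with h | h
    · have hx : x = ⟨0, on_N_pos⟩ := Fin.ext h
      rw [hx]
      show fld 8 (on_olab 0) 0 < 5
      rw [on_cls0]
      norm_num
    · omega
  have h0 : on_col ⟨0, on_N_pos⟩ = 0 := on_cls0
  have hne : ∀ ω : Fin t1692_pd.N, ω ≠ ⟨0, on_N_pos⟩ → on_col ω ≠ 0 := by
    intro ω hω
    rcases on_col_cases ω with h | h
    · exact absurd (Fin.ext h) hω
    · omega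
  have horb : ∀ x y : Fin t1692_pd.N, on_col x = on_col y → on_col x ≠ 0 →
      ∃ h ∈ stabOf ρ ⟨0, on_N_pos⟩, ρ h x = y := by
    intro x y hxy _
    rw [← hst]
    exact W.forest_orbit on_gen ρ hw onHs on_olab t1692_sw on_oroots
      (fun w hw' => Subgroup.subset_closure ⟨w, hw', rfl⟩) on_for_all x y hxy
  obtain ⟨I, hI, hI0, hrel⟩ := normal_orbit_colors ρ ⟨0, on_N_pos⟩ on_col 5 hr h0 hne horb K
  rcases normal_le_or_relIndex ρ ⟨0, on_N_pos⟩ htr 0
    (fun ω _ => ⟨∅, le_refl _, Finset.notMem_empty _,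
      fun x hx => absurd hx (Finset.notMem_empty x)⟩) K with hle | ⟨-, hdvd, hdvdK⟩
  · exact absurd hle hKH
  have hdvd' : (stabOf ρ ⟨0, on_N_pos⟩).relIndex K ∣ 122760 := hdvd
  have hne1 : (stabOf ρ ⟨0, on_N_pos⟩).relIndex K ≠ 1 :=
    fun h => hKH (Subgroup.relIndex_eq_one.mp h)
  rw [sum_sub_range5 I hI hI0, on_col_card 1 _ on_cnt1, on_col_card 2 _ on_cnt2,
    on_col_card 3 _ on_cnt3, on_col_card 4 _ on_cnt4] at hrel
  have hidx : (stabOf ρ ⟨0, on_N_pos⟩).relIndex K = 122760 := by
    rw [hrel] at hdvd' hne1 ⊢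
    by_cases h1 : 1 ∈ I <;> by_cases h2 : 2 ∈ I <;> by_cases h3 : 3 ∈ I <;>
      by_cases h4 : 4 ∈ I <;>
      simp only [h1, h2, h3, h4, if_true, if_false] at hdvd' hne1 ⊢ <;>
      first
        | (exfalso; exact hne1 rfl)
        | rfl
        | (exfalso; revert hdvd'; decide)
  rw [hidx] at hdvdK
  have h5 : 5 ∣ Nat.card K := Dvd.dvd.trans (by norm_num) hdvdK
  have : Fact (Nat.Prime 5) := ⟨by norm_num⟩
  have h25 : ¬ 5 ^ 2 ∣ Nat.card ON := by
    rw [hcard]
    norm_num
  -- the element `b c d g` has order dividing `5`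
  have hA : ∀ x ∈ coxNodes ON.edges, ∀ y ∈ coxNodes ON.edges,
      ((PresentedGroup.of x : ON) * PresentedGroup.of y) ^ coxLabel ON.edges x y = 1 :=
    (NI.cox_rel_nodes ON.edges ON.extra).1
  have hB : ∀ r ∈ ON.extra, FreeGroup.lift (fun x => (PresentedGroup.of x : ON)) r = 1 :=
    (NI.cox_rel_nodes ON.edges ON.extra).2
  have hu5 : ((PresentedGroup.of ON.Gen.b : ON) * PresentedGroup.of ON.Gen.c *
      PresentedGroup.of ON.Gen.d * PresentedGroup.of ON.Gen.g) ^ 5 = 1 := by
    have h := hB _ (List.Mem.tail _ (List.Mem.tail _ (List.Mem.tail _ (List.Mem.tail _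
      (List.Mem.head _)))))
    simpa only [map_mul, map_pow, FreeGroup.lift_apply_of] using h
  have huK := mem_normal_of_pow_prime 5 h25 K h5 _ hu5
  -- the quotient by `K` is trivial
  let π : ON →* ON ⧸ K := QuotientGroup.mk' K
  have hπ1 : ∀ g, π g = 1 ↔ g ∈ K := fun g => QuotientGroup.eq_one_iff g
  have hall := on_collapse (fun x => π (PresentedGroup.of x))
    (by
      intro x hx y hy
      show (π (PresentedGroup.of x) * π (PresentedGroup.of y)) ^ coxLabel ON.edges x y = 1
      rw [← map_mul, ← map_pow, hA x hx y hy, map_one])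
    (by
      intro r hr'
      rw [lift_comp_apply π (fun x => (PresentedGroup.of x : ON)) r, hB r hr', map_one])
    (by
      show π (PresentedGroup.of ON.Gen.b) * π (PresentedGroup.of ON.Gen.c) *
        π (PresentedGroup.of ON.Gen.d) * π (PresentedGroup.of ON.Gen.g) = 1
      rw [← map_mul, ← map_mul, ← map_mul]
      exact (hπ1 _).mpr huK)
  rw [eq_top_iff, ← PresentedGroup.closure_range_of, Subgroup.closure_le]
  rintro _ ⟨x, rfl⟩
  exact (hπ1 _).mp (hall x)

/-- the presented O'Nan group is simple of order 460815505920 -/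
theorem on_main : IsSimpleGroup ON ∧ Nat.card ON = 460815505920 := by
  refine ⟨on_simple, ?_⟩
  obtain ⟨ρ, hw, hst, htr, hinj, hfin, hcard, hHcard⟩ := on_struct
  exact hcard

end Cfsg.Agent.H35
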